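/-
The statements on `K`, `V / W` and the Sylow `2`-subgroup of `Q`, assuming Thompson's theorem on fixed-point-free
automorphisms and the odd order theorem.
-/
import Cfsg.Agent.Suz.QK2
import Cfsg.Statements.S0033
import Cfsg.Statements.S0205
import Cfsg.Statements.S1131
import Cfsg.Statements.S1132
import Cfsg.Statements.S1133
import Cfsg.Statements.S1161

set_option autoImplicit false

open Cfsg MulAction CL.Chev.Rank1

namespace CL.Suz

universe u v

theorem Q_nilpotent_of (h33 : type_of% @Cfsg.CfsgFrozen.S0033.{u}) {G : Type u} {Ω : Type*} [Group G] [Finite G]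
    [MulAction G Ω] {a : Ω} {t : G} {Q : Subgroup G} (hS : IsRankOneSetup G Ω a t Q)
    (h2 : ∃ x y : G, x ≠ 1 ∧ y ≠ 1 ∧ x ≠ y ∧ x * x = 1 ∧ y * y = 1 ∧ x * y = y * x) :
    Group.IsNilpotent Q := by
  obtain ⟨k, hk, hk1⟩ := exists_K_ne_one hS h2
  obtain ⟨φ, p, h1, hp, h3⟩ := exists_fpf_aut hS hk hk1
  exact h33 φ h1 p hp h3

theorem S1161_of (h205 : type_of% @Cfsg.CfsgFrozen.S0205.{u}) : type_of% @Cfsg.CfsgFrozen.S1161.{u, v} := by
  intro D E _ _ _ _ _ _ _ hodd q hq hE htrans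
  have := h205 hodd
  exact huppert_solvable hodd hq hE htrans

theorem S1131_of (h33 : type_of% @Cfsg.CfsgFrozen.S0033.{u}) (h205 : type_of% @Cfsg.CfsgFrozen.S0205.{u}) :
    type_of% @Cfsg.CfsgFrozen.S1131.{u, v} := by
  intro G Ω _ _ _ _ a t Q hS h2
  have hI := invol_comm_of_nilpotent hS (Q_nilpotent_of h33 hS h2)
  have hD := h205 hS.odd_card
  refine ⟨Kgp a t, Set.ext fun k => mem_Kgp hS hI hD, Kgp_isCyclic hS hI hD, fun d hd c hc => ?_⟩
  simpa using Kgp_conj_mem hS (inv_mem hd) hc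

theorem S1132_of (h33 : type_of% @Cfsg.CfsgFrozen.S0033.{u}) (h205 : type_of% @Cfsg.CfsgFrozen.S0205.{u}) :
    type_of% @Cfsg.CfsgFrozen.S1132.{u, v} := by
  intro G Ω _ _ _ _ a t Q hS h2 S
  exact sylow_comm_or_suzuki hS (h205 hS.odd_card) (Q_nilpotent_of h33 hS h2) h2 S

theorem S1133_of (h33 : type_of% @Cfsg.CfsgFrozen.S0033.{u}) (h205 : type_of% @Cfsg.CfsgFrozen.S0205.{u}) :
    type_of% @Cfsg.CfsgFrozen.S1133.{u, v} := by
  intro G Ω _ _ _ _ a t Q hS h2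
  obtain ⟨v, hv, h⟩ := exists_W_sup_zpowers hS (invol_comm_of_nilpotent hS (Q_nilpotent_of h33 hS h2))
    (h205 hS.odd_card)
  exact ⟨v, hv, by rw [← Subgroup.zpowers_eq_closure]; exact h⟩

end CL.Suz
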